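import Cfsg.Agent.H524.RIM.PX
import Cfsg.Agent.H665.RIM.Defs
import Cfsg.Agent.H843.Pat
import Cfsg.Agent.H887.RIM.AT2
import Cfsg.Agent.S1698

/-!
# `Fi₂₄'`: a subgroup `3^3 : ⟨x, y⟩`, `x` of order 13 (helper433)

`⟨b, …, i⟩ = 2 × Ω₇(3)` in `Fi₂₄`; `⟨a0, b0, c0⟩ = 3^3` is the centre of the unipotent radical of the stabiliser of
a totally singular 3-space, `x` the Coxeter element.

* `noPEx_thirteen` : `NoPEx 13` from elements `a, b, c, x, y` with the relations of `3^3 : ⟨x, y⟩`;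
* `noPEx_fi24` : `NoPEx 13 Fi₂₄'` (row of S4816).
-/

set_option autoImplicit false
set_option maxRecDepth 100000
set_option exponentiation.threshold 5000
set_option linter.constructorNameAsVariable false

namespace Cfsg.Agent.H433.RIM

open Cfsg.Agent.H665.RIM

universe u

section three

variable {S : Type u} [Group S] {a b c : S}

/-- `a ^ i * b ^ j * c ^ k` -/
def f3 (a b c : S) (u : ZMod 3 × ZMod 3 × ZMod 3) : S := a ^ u.1.val * b ^ u.2.1.val * c ^ u.2.2.val

theorem pow_val_add {g : S} (hg : g ^ 3 = 1) (i j : ZMod 3) : g ^ (i + j).val = g ^ i.val * g ^ j.val := by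
  rw [ZMod.val_add, ← pow_add]
  conv_rhs => rw [← Nat.div_add_mod (i.val + j.val) 3, pow_add, pow_mul, hg, one_pow, one_mul]

theorem f3_add (ha : a ^ 3 = 1) (hb : b ^ 3 = 1) (hc : c ^ 3 = 1) (hab : a * b = b * a) (hac : a * c = c * a)
    (hbc : b * c = c * b) (u v : ZMod 3 × ZMod 3 × ZMod 3) : f3 a b c (u + v) = f3 a b c u * f3 a b c v := by
  unfold f3
  simp only [Prod.fst_add, Prod.snd_add, pow_val_add ha, pow_val_add hb, pow_val_add hc]
  have h1 : Commute (a ^ v.1.val) (b ^ u.2.1.val) := (show Commute a b from hab).pow_pow _ _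
  have h2 : Commute (a ^ v.1.val) (c ^ u.2.2.val) := (show Commute a c from hac).pow_pow _ _
  have h3 : Commute (b ^ v.2.1.val) (c ^ u.2.2.val) := (show Commute b c from hbc).pow_pow _ _
  calc a ^ u.1.val * a ^ v.1.val * (b ^ u.2.1.val * b ^ v.2.1.val) * (c ^ u.2.2.val * c ^ v.2.2.val)
      = a ^ u.1.val * (a ^ v.1.val * b ^ u.2.1.val) * (b ^ v.2.1.val * c ^ u.2.2.val) * c ^ v.2.2.val := by
        simp only [mul_assoc]
    _ = a ^ u.1.val * (b ^ u.2.1.val * a ^ v.1.val) * (c ^ u.2.2.val * b ^ v.2.1.val) * c ^ v.2.2.val := by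
        rw [h1.eq, h3.eq]
    _ = a ^ u.1.val * b ^ u.2.1.val * (a ^ v.1.val * c ^ u.2.2.val) * b ^ v.2.1.val * c ^ v.2.2.val := by
        simp only [mul_assoc]
    _ = a ^ u.1.val * b ^ u.2.1.val * (c ^ u.2.2.val * a ^ v.1.val) * b ^ v.2.1.val * c ^ v.2.2.val := by
        rw [h2.eq]
    _ = _ := by simp only [mul_assoc]

/-- the action of `x` -/
def φ3 (u : ZMod 3 × ZMod 3 × ZMod 3) : ZMod 3 × ZMod 3 × ZMod 3 := (u.2.2, u.1 + u.2.2, u.2.1 + u.2.2)

/-- the action of `y` -/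
def ψ3 (u : ZMod 3 × ZMod 3 × ZMod 3) : ZMod 3 × ZMod 3 × ZMod 3 := (u.1, -u.2.2, u.2.1 - u.2.2)

theorem reach : ∀ u : ZMod 3 × ZMod 3 × ZMod 3, u ≠ 0 → ∃ i : Fin 13, ∃ k : Fin 2, ∃ j : Fin 13,
    φ3^[i.val] (ψ3^[k.val] (φ3^[j.val] u)) = (1, 0, 0) := by decide +kernel

theorem fix3 : ∀ u : ZMod 3 × ZMod 3 × ZMod 3, φ3 u = u → u = 0 := by decide +kernel

variable (ha : a ^ 3 = 1) (hab : a * b = b * a) (hac : a * c = c * a) {x y : S} (hxa : x * a = b * x)
  (hxb : x * b = c * x) (hxc : x * c = a * b * c * x) (hya : y * a = a * y) (hyb : y * b = c * y)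
  (hyc : b * c * y * c = y)

include ha hxa in
theorem cube_b : b ^ 3 = 1 := by
  have h : b = x * a * x⁻¹ := by rw [hxa, mul_inv_cancel_right]
  rw [h, conj_pow, ha, mul_one, mul_inv_cancel]

include hab hxa hxb in
theorem comm_bc : b * c = c * b := by
  have h1 : b = x * a * x⁻¹ := by rw [hxa, mul_inv_cancel_right]
  have h2 : c = x * b * x⁻¹ := by rw [hxb, mul_inv_cancel_right]
  calc b * c = (x * a * x⁻¹) * (x * b * x⁻¹) := by rw [← h1, ← h2]
    _ = x * (a * b) * x⁻¹ := by group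
    _ = x * (b * a) * x⁻¹ := by rw [hab]
    _ = (x * b * x⁻¹) * (x * a * x⁻¹) := by group
    _ = c * b := by rw [← h1, ← h2]

include ha hab hac hxa hxb hxc in
theorem conj_x (u : ZMod 3 × ZMod 3 × ZMod 3) : x * f3 a b c u * x⁻¹ = f3 a b c (φ3 u) := by
  have hb := cube_b ha hxa
  have hc := cube_b hb hxb
  have hbc := comm_bc hab hxa hxb
  have h1 : x * a * x⁻¹ = b := by rw [hxa, mul_inv_cancel_right]
  have h2 : x * b * x⁻¹ = c := by rw [hxb, mul_inv_cancel_right]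
  have h3 : x * c * x⁻¹ = a * b * c := by rw [hxc, mul_inv_cancel_right]
  have h4 : x * f3 a b c u * x⁻¹ = (x * a * x⁻¹) ^ u.1.val * (x * b * x⁻¹) ^ u.2.1.val * (x * c * x⁻¹) ^ u.2.2.val := by
    rw [conj_pow, conj_pow, conj_pow]
    unfold f3
    group
  rw [h4, h1, h2, h3]
  have hab' : Commute a b := hab
  have hac' : Commute a c := hac
  have hbc' : Commute b c := hbc
  rw [(hac'.mul_left hbc').mul_pow, hab'.mul_pow]
  unfold f3 φ3
  rw [pow_val_add hb, pow_val_add hc]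
  have e1 : Commute (c ^ u.2.1.val) (a ^ u.2.2.val) := (hac'.symm).pow_pow _ _
  have e2 : Commute (b ^ u.1.val) (a ^ u.2.2.val) := (hab'.symm).pow_pow _ _
  have e3 : Commute (c ^ u.2.1.val) (b ^ u.2.2.val) := (hbc'.symm).pow_pow _ _
  calc b ^ u.1.val * c ^ u.2.1.val * (a ^ u.2.2.val * b ^ u.2.2.val * c ^ u.2.2.val)
      = b ^ u.1.val * (c ^ u.2.1.val * a ^ u.2.2.val) * b ^ u.2.2.val * c ^ u.2.2.val := by simp only [mul_assoc]
    _ = b ^ u.1.val * (a ^ u.2.2.val * c ^ u.2.1.val) * b ^ u.2.2.val * c ^ u.2.2.val := by rw [e1.eq]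
    _ = (b ^ u.1.val * a ^ u.2.2.val) * (c ^ u.2.1.val * b ^ u.2.2.val) * c ^ u.2.2.val := by simp only [mul_assoc]
    _ = (a ^ u.2.2.val * b ^ u.1.val) * (b ^ u.2.2.val * c ^ u.2.1.val) * c ^ u.2.2.val := by rw [e2.eq, e3.eq]
    _ = _ := by simp only [mul_assoc]

include ha hab hac hxa hxb hya hyb hyc in
theorem conj_y (u : ZMod 3 × ZMod 3 × ZMod 3) : y * f3 a b c u * y⁻¹ = f3 a b c (ψ3 u) := by
  have hb := cube_b ha hxa
  have hc := cube_b hb hxb
  have hbc := comm_bc hab hxa hxb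
  have h1 : y * a * y⁻¹ = a := by rw [hya, mul_inv_cancel_right]
  have h2 : y * b * y⁻¹ = c := by rw [hyb, mul_inv_cancel_right]
  have hinj : ∀ v w, f3 a b c (v + w) = f3 a b c v * f3 a b c w := f3_add ha hb hc hab hac hbc
  have h3 : y * c * y⁻¹ = f3 a b c (0, -1, -1) := by
    have e1 : f3 a b c (0, 1, 1) = b * c := by
      unfold f3
      have e : (1 : ZMod 3).val = 1 := rfl
      simp only [ZMod.val_zero, e, pow_zero, pow_one, one_mul]
    have e2 : f3 a b c (0, -1, -1) * f3 a b c (0, 1, 1) = 1 := by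
      rw [← hinj]
      show f3 a b c ((0 : ZMod 3) + 0, (-1 : ZMod 3) + 1, (-1 : ZMod 3) + 1) = 1
      unfold f3
      simp
    have e3 : f3 a b c (0, -1, -1) = (b * c)⁻¹ := by
      rw [e1] at e2
      exact eq_inv_of_mul_eq_one_left e2
    rw [e3, mul_inv_eq_iff_eq_mul]
    rw [eq_inv_mul_iff_mul_eq, ← mul_assoc]
    exact hyc
  have hA : f3 a b c (1, 0, 0) = a := by
    unfold f3
    have e : (1 : ZMod 3).val = 1 := rfl
    simp only [ZMod.val_zero, e, pow_zero, pow_one, mul_one]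
  have hC : f3 a b c (0, 0, 1) = c := by
    unfold f3
    have e : (1 : ZMod 3).val = 1 := rfl
    simp only [ZMod.val_zero, e, pow_zero, pow_one, one_mul]
  have hpow : ∀ (v : ZMod 3 × ZMod 3 × ZMod 3) (n : ℕ), f3 a b c v ^ n = f3 a b c (n • v) := by
    intro v n
    induction n with
    | zero => rw [pow_zero, zero_smul]; unfold f3; simp
    | succ n ih => rw [pow_succ, ih, ← hinj, succ_nsmul]
  have h4 : y * f3 a b c u * y⁻¹ = (y * a * y⁻¹) ^ u.1.val * (y * b * y⁻¹) ^ u.2.1.val * (y * c * y⁻¹) ^ u.2.2.val := by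
    rw [conj_pow, conj_pow, conj_pow]
    unfold f3
    group
  rw [h4, h1, h2, h3]
  nth_rewrite 1 [← hA]
  nth_rewrite 2 [← hC]
  rw [hpow, hpow, hpow, ← hinj, ← hinj]
  congr 1
  have key : ∀ i j k : ZMod 3, i.val • ((1 : ZMod 3), (0 : ZMod 3), (0 : ZMod 3)) + j.val • ((0 : ZMod 3), (0 : ZMod 3), (1 : ZMod 3)) +
      k.val • ((0 : ZMod 3), (-1 : ZMod 3), (-1 : ZMod 3)) = (i, -k, j - k) := by decide +kernel
  exact key u.1 u.2.1 u.2.2

end three

/-- **`NoPEx 13`** for a group containing `3^3 : ⟨x, y⟩` with transitive action on the 26 elements -/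
theorem noPEx_thirteen {S : Type u} [Group S] [Finite S] {a b c x y : S} (ha : a ^ 3 = 1) (ha1 : a ≠ 1)
    (hab : a * b = b * a) (hac : a * c = c * a) (hx : x ^ 13 = 1)
    (hxa : x * a = b * x) (hxb : x * b = c * x) (hxc : x * c = a * b * c * x) (hya : y * a = a * y)
    (hyb : y * b = c * y) (hyc : b * c * y * c = y) (hS : Nat.card S ≤ 13 ^ 23) : NoPEx 13 S := by
  have : Fact (Nat.Prime 13) := ⟨by norm_num⟩
  have hb := cube_b ha hxa
  have hc := cube_b hb hxb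
  have hbc := comm_bc hab hxa hxb
  have hadd := f3_add ha hb hc hab hac hbc
  have hX := conj_x ha hab hac hxa hxb hxc
  have hY := conj_y ha hab hac hxa hxb hya hyb hyc
  have h0 : f3 a b c 0 = 1 := by unfold f3; simp
  have hA1 : f3 a b c (1, 0, 0) = a := by
    unfold f3
    have e : (1 : ZMod 3).val = 1 := rfl
    simp only [ZMod.val_zero, e, pow_zero, pow_one, mul_one]
  -- the subgroup
  let A : Subgroup S :=
    { carrier := Set.range (f3 a b c)
      mul_mem' := by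
        rintro _ _ ⟨u, rfl⟩ ⟨v, rfl⟩
        exact ⟨u + v, hadd u v⟩
      one_mem' := ⟨0, h0⟩
      inv_mem' := by
        rintro _ ⟨u, rfl⟩
        refine ⟨-u, ?_⟩
        rw [eq_comm, inv_eq_iff_mul_eq_one, ← hadd, add_neg_cancel, h0] }
  have hmem : ∀ u, f3 a b c u ∈ A := fun u => ⟨u, rfl⟩
  have hcomm : ∀ g ∈ A, ∀ h ∈ A, g * h = h * g := by
    rintro _ ⟨u, rfl⟩ _ ⟨v, rfl⟩
    rw [← hadd, ← hadd, add_comm]
  have hxA : ∀ g ∈ A, x * g * x⁻¹ ∈ A := by
    rintro _ ⟨u, rfl⟩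
    rw [hX]
    exact hmem _
  have hyA : ∀ g ∈ A, y * g * y⁻¹ ∈ A := by
    rintro _ ⟨u, rfl⟩
    rw [hY]
    exact hmem _
  have hxi : ∀ (i : ℕ) u, x ^ i * f3 a b c u * (x ^ i)⁻¹ = f3 a b c (φ3^[i] u) := by
    intro i
    induction i with
    | zero => intro u; simp
    | succ i ih =>
      intro u
      rw [Function.iterate_succ_apply', ← hX, ← ih, pow_succ']
      group
  have hyi : ∀ (i : ℕ) u, y ^ i * f3 a b c u * (y ^ i)⁻¹ = f3 a b c (ψ3^[i] u) := by
    intro i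
    induction i with
    | zero => intro u; simp
    | succ i ih =>
      intro u
      rw [Function.iterate_succ_apply', ← hY, ← ih, pow_succ']
      group
  have hto : ∀ u, u ≠ 0 → ∃ g : S, (∀ h ∈ A, g * h * g⁻¹ ∈ A) ∧ (∀ h ∈ A, g⁻¹ * h * g ∈ A) ∧
      g * f3 a b c u * g⁻¹ = a := by
    intro u hu
    obtain ⟨i, k, j, h⟩ := reach u hu
    have hxN : x ∈ Subgroup.normalizer (A : Set S) := by
      have : Finite (A : Set S) := inferInstanceAs (Finite A)
      exact Subgroup.mem_normalizer_fintype hxA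
    have hyN : y ∈ Subgroup.normalizer (A : Set S) := by
      have : Finite (A : Set S) := inferInstanceAs (Finite A)
      exact Subgroup.mem_normalizer_fintype hyA
    have hg : x ^ i.val * y ^ k.val * x ^ j.val ∈ Subgroup.normalizer (A : Set S) :=
      mul_mem (mul_mem (pow_mem hxN _) (pow_mem hyN _)) (pow_mem hxN _)
    refine ⟨x ^ i.val * y ^ k.val * x ^ j.val, fun h hh => (Subgroup.mem_normalizer_iff.1 hg h).1 hh,
      fun h hh => (Subgroup.mem_normalizer_iff''.1 hg h).1 hh, ?_⟩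
    have e : x ^ i.val * y ^ k.val * x ^ j.val * f3 a b c u * (x ^ i.val * y ^ k.val * x ^ j.val)⁻¹ =
        f3 a b c (1, 0, 0) := by
      rw [← h, ← hxi, ← hyi, ← hxi]
      group
    exact e.trans hA1
  have htr : ∀ g ∈ A, g ≠ 1 → ∀ h ∈ A, h ≠ 1 → ∃ n : S, (∀ c ∈ A, n * c * n⁻¹ ∈ A) ∧ n * g * n⁻¹ = h := by
    rintro _ ⟨u, rfl⟩ hu _ ⟨v, rfl⟩ hv
    obtain ⟨g, hg1, -, hg3⟩ := hto u (fun e => hu (by rw [e, h0]))
    obtain ⟨h, hh1, hh2, hh3⟩ := hto v (fun e => hv (by rw [e, h0]))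
    refine ⟨h⁻¹ * g, fun c hc => ?_, ?_⟩
    · have h1 := hh2 _ (hg1 c hc)
      have e : h⁻¹ * g * c * (h⁻¹ * g)⁻¹ = h⁻¹ * (g * c * g⁻¹) * h := by group
      rw [e]
      exact h1
    · have e : h⁻¹ * g * f3 a b c u * (h⁻¹ * g)⁻¹ = h⁻¹ * (g * f3 a b c u * g⁻¹) * h := by group
      rw [e, hg3, mul_assoc, inv_mul_eq_iff_eq_mul]
      exact eq_mul_inv_iff_mul_eq.1 hh3.symm
  have hne : ∀ u, u ≠ 0 → f3 a b c u ≠ 1 := by
    intro u hu h
    obtain ⟨g, -, -, hg⟩ := hto u hu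
    rw [h, mul_one, mul_inv_cancel] at hg
    exact ha1 hg.symm
  have hinj : Function.Injective (f3 a b c) := by
    intro u v h
    by_contra hne'
    refine hne (u - v) (sub_ne_zero.2 hne') ?_
    have h1 := hadd (u - v) v
    rw [sub_add_cancel, h] at h1
    exact (mul_eq_right.1 h1.symm)
  have hcardA : Nat.card A = 27 := by
    have e : (ZMod 3 × ZMod 3 × ZMod 3) ≃ A := Equiv.ofInjective _ hinj
    rw [← Nat.card_congr e, Nat.card_prod, Nat.card_prod, Nat.card_zmod]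
  have hfix : Nat.card {g : S // g ∈ A ∧ x * g = g * x} = 1 := by
    rw [Nat.card_eq_one_iff_unique]
    refine ⟨⟨?_⟩, ⟨⟨1, one_mem A, by rw [mul_one, one_mul]⟩⟩⟩
    have key : ∀ g : S, g ∈ A → x * g = g * x → g = 1 := by
      rintro _ ⟨u, rfl⟩ h
      have h1 := hX u
      rw [h, mul_inv_cancel_right] at h1
      rw [fix3 u (hinj h1).symm, h0]
    rintro ⟨g, hg, hg'⟩ ⟨h, hh, hh'⟩
    exact Subtype.ext ((key g hg hg').trans (key h hh hh').symm)
  intro V _ _ _ h1 h2 h3 h4 h5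
  have hP : Cfsg.Agent.H524.RIM.PX 13 S V := ⟨h1, h2, h3, h4, h5⟩
  obtain ⟨v, hv⟩ : ∃ v : V, a • v ≠ v := by
    by_contra hcon
    push Not at hcon
    exact ha1 (h3 a hcon)
  have hx13 : IsPGroup 13 (Subgroup.zpowers x) := by
    intro g
    refine ⟨1, ?_⟩
    obtain ⟨g, hg⟩ := g
    obtain ⟨k, rfl⟩ := Subgroup.mem_zpowers_iff.1 hg
    apply Subtype.ext
    show (x ^ k) ^ (13 ^ 1) = 1
    rw [pow_one, ← zpow_natCast, ← zpow_mul, mul_comm, zpow_mul, zpow_natCast, hx, one_zpow]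
  obtain ⟨P, hxP⟩ := hx13.exists_le_sylow
  have hle : Nat.card V ≤ 13 ^ 23 * Nat.card {v : V // x • v = v} := by
    refine (hP.card_le P).trans (Nat.mul_le_mul ?_ ?_)
    · refine le_trans ?_ hS
      exact Nat.le_of_dvd Nat.card_pos (Sylow.card_dvd_index P |>.trans (Subgroup.index_dvd_card _))
    · refine Nat.card_le_card_of_injective (fun w => (⟨w.1, ?_⟩ : {v : V // x • v = v})) ?_
      · exact w.2 x (hxP (Subgroup.mem_zpowers x))
      · intro w w' h
        exact Subtype.ext (congrArg (fun t : {v : V // x • v = v} => t.1) h)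
  have h6 := Cfsg.Agent.H887.RIM.at1_codim (p := 13) (by norm_num) h1 A hcomm (by rw [hcardA]; decide) htr
    (by rw [← hA1]; exact hmem _) hv hxA (s := 13) (by norm_num) hx hle
  rw [hcardA, hfix] at h6
  norm_num at h6

/-! ### the elements -/

open Cfsg Cfsg.Agent.Lib.PermNet Cfsg.Agent.Lib.PermNetPt Cfsg.Agent.Fischer.Fi24RepDef Cfsg.Agent.Fischer.Fi24Rep
open Cfsg.Agent.Fischer.Fi24Spider (word_append word_cons word_nil)
open Cfsg.Agent.H843.Pat
open Cfsg.Agent.KFacts.FiTF.FixMask Cfsg.Agent.KFacts.FiTF.Pts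
open Cfsg.Spor (Fi24)
open Cfsg.Spor.Fi24 (Gen)

def xw : List Gen := [.i, .h, .f, .g, .e, .d, .c, .b]
def aw : List Gen := [.d, .c, .b, .e, .d, .c, .f, .e, .d, .c, .b, .h, .d, .c, .i, .h, .d, .e, .c, .d, .h, .i, .b, .c,
  .d, .h, .f, .e, .d, .b]
def yw : List Gen := [.e, .b, .c, .d, .c, .b]
def vw : List Gen := xw.reverse

theorem k1 : chkEq (rep 13 xw) [] = true := by decide +kernel
theorem k2 : chkEq (rep 3 aw) [] = true := by decide +kernel
theorem k3 : chkEq (aw ++ (xw ++ (aw ++ vw))) (xw ++ (aw ++ (vw ++ aw))) = true := by decide +kernel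
theorem k4 : chkEq (aw ++ (xw ++ (xw ++ (aw ++ (vw ++ vw))))) (xw ++ (xw ++ (aw ++ (vw ++ (vw ++ aw))))) = true := by
  decide +kernel
theorem k5 : chkEq (xw ++ (xw ++ (xw ++ (aw ++ vw)))) (aw ++ (xw ++ (aw ++ (xw ++ aw)))) = true := by decide +kernel
theorem k6 : chkEq (yw ++ aw) (aw ++ yw) = true := by decide +kernel
theorem k7 : chkEq (yw ++ (xw ++ (aw ++ vw))) (xw ++ (xw ++ (aw ++ (vw ++ (vw ++ yw))))) = true := by decide +kernel
theorem k8 : chkEq (xw ++ (aw ++ (xw ++ (aw ++ (vw ++ (vw ++ (yw ++ (xw ++ (xw ++ (aw ++ (vw ++ vw))))))))))) yw =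
  true := by decide +kernel
theorem k9 : Nat.beq (winv (nw xw false) 1) 1 = false := by decide +kernel
theorem k10 : Nat.beq (winv (nw aw false) 1) 1 = false := by decide +kernel

theorem vw_eq : word vw = (word xw)⁻¹ := word_reverse xw

theorem sgn_word (w : List Gen) (h : Even w.length) : Cfsg.Agent.Fischer.Fi24Final.sgn (word w) = 1 := by
  have h1 : ∀ l : List Gen, Cfsg.Agent.Fischer.Fi24Final.sgn (word l) = (-1) ^ l.length := by
    intro l
    induction l with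
    | nil => rw [word_nil, map_one]; rfl
    | cons x l ih =>
      rw [word_cons, map_mul, ih, Cfsg.Agent.Fischer.Fi24Final.sgn_gen, List.length_cons, pow_succ']
  rw [h1, h.neg_one_pow]

theorem mem_word {w : List Gen} (h : Even w.length) : word w ∈ commutator Fi24 := by
  rw [← Cfsg.Agent.Fischer.Fi24Final.ker_sgn, MonoidHom.mem_ker, sgn_word w h]

theorem ne_of {w : List Gen} {p : ℕ} (h : Nat.beq (winv (nw w false) p) p = false) : word w ≠ 1 := by
  intro h1
  rw [winv_word, h1, inv_one, map_one] at h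
  simp at h

/-- the elements -/
theorem exists_elts : ∃ a b c x y : Spor.Fi24', a ^ 3 = 1 ∧ a ≠ 1 ∧ a * b = b * a ∧ a * c = c * a ∧ x ^ 13 = 1 ∧
    x * a = b * x ∧ x * b = c * x ∧ x * c = a * b * c * x ∧ y * a = a * y ∧ y * b = c * y ∧ b * c * y * c = y := by
  have h1 := word_eq_of k1
  have h2 := word_eq_of k2
  have h3 := word_eq_of k3
  have h4 := word_eq_of k4
  have h5 := word_eq_of k5
  have h6 := word_eq_of k6
  have h7 := word_eq_of k7
  have h8 := word_eq_of k8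
  rw [word_rep, word_nil] at h1 h2
  simp only [word_append, vw_eq] at h3 h4 h5 h6 h7 h8
  have ha1 : word aw ≠ 1 := ne_of k10
  set x := word xw with hx
  set a := word aw with ha
  set y := word yw with hy
  have mx : x ∈ commutator Fi24 := mem_word (by decide)
  have ma : a ∈ commutator Fi24 := mem_word (by decide)
  have my : y ∈ commutator Fi24 := mem_word (by decide)
  let X : Spor.Fi24' := ⟨x, mx⟩
  let A : Spor.Fi24' := ⟨a, ma⟩
  let Y : Spor.Fi24' := ⟨y, my⟩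
  refine ⟨A, X * A * X⁻¹, X * (X * A * X⁻¹) * X⁻¹, X, Y, Subtype.ext h2, fun h => ha1 (congrArg Subtype.val h), ?_, ?_,
    Subtype.ext h1, by group, by group, ?_, Subtype.ext h6, ?_, ?_⟩
  · apply Subtype.ext
    show a * (x * a * x⁻¹) = x * a * x⁻¹ * a
    rw [show a * (x * a * x⁻¹) = a * (x * (a * x⁻¹)) by group, h3]
    group
  · apply Subtype.ext
    show a * (x * (x * a * x⁻¹) * x⁻¹) = x * (x * a * x⁻¹) * x⁻¹ * a
    rw [show a * (x * (x * a * x⁻¹) * x⁻¹) = a * (x * (x * (a * (x⁻¹ * x⁻¹)))) by group, h4]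
    group
  · apply Subtype.ext
    show x * (x * (x * a * x⁻¹) * x⁻¹) = a * (x * a * x⁻¹) * (x * (x * a * x⁻¹) * x⁻¹) * x
    rw [show x * (x * (x * a * x⁻¹) * x⁻¹) = x * (x * (x * (a * x⁻¹))) * x⁻¹ by group, h5]
    group
  · apply Subtype.ext
    show y * (x * a * x⁻¹) = x * (x * a * x⁻¹) * x⁻¹ * y
    rw [show y * (x * a * x⁻¹) = y * (x * (a * x⁻¹)) by group, h7]
    group
  · apply Subtype.ext
    show x * a * x⁻¹ * (x * (x * a * x⁻¹) * x⁻¹) * y * (x * (x * a * x⁻¹) * x⁻¹) = y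
    refine Eq.trans ?_ h8
    group

/-- **`NoPEx 13 Fi₂₄'`** -/
theorem noPEx_fi24 {S : Type u} [Group S] (h : Spor.IsoFi24' S) : NoPEx 13 S := by
  obtain ⟨e⟩ := h
  have hc : Nat.card Spor.Fi24' = 1255205709190661721292800 := Cfsg.Agent.S1698.result.2
  have hf : Finite Spor.Fi24' := Nat.finite_of_card_ne_zero (by rw [hc]; norm_num)
  have : Finite S := Finite.of_equiv _ e.symm.toEquiv
  obtain ⟨a, b, c, x, y, h1, h2, h3, h4, h5, h6, h7, h8, h9, h10, h11⟩ := exists_elts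
  have hmap : ∀ u v : Spor.Fi24', u = v → e.symm u = e.symm v := fun u v h => by rw [h]
  refine noPEx_thirteen (a := e.symm a) (b := e.symm b) (c := e.symm c) (x := e.symm x) (y := e.symm y) ?_ ?_ ?_ ?_ ?_ ?_
    ?_ ?_ ?_ ?_ ?_ ?_
  · rw [← map_pow, h1, map_one]
  · rwa [Ne, EmbeddingLike.map_eq_one_iff]
  all_goals first
    | (simp only [← map_mul]; exact hmap _ _ ‹_›)
    | skip
  · rw [← map_pow, h5, map_one]
  · rw [Nat.card_congr e.toEquiv, hc]
    norm_num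

end Cfsg.Agent.H433.RIM
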